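import Mathlib
import Cfsg.Agent.Lib.Helper99.C64.Defs

set_option autoImplicit false

namespace Cfsg.Agent.Lib.Helper77.C64

open Matrix Cfsg.Agent.Lib.Helper99.C64

universe u

section abstract

variable {G : Type*} [Group G]

/-- mixed case of the polarisation: forces `z = 1` -/
theorem mix_case {z a b x y : G} (hzc : ∀ g : G, z * g = g * z)
    (hax : a * x = x * a) (hby : b * y = y * b) (hbx : b * x = x * b)
    (hya : y * a = z * (a * y)) (hE : a * b * (x * y) = x * y * (a * b)) : z = 1 := by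
  have h1 : a * b * (x * y) = x * (a * y) * b := by
    calc a * b * (x * y) = a * (b * x) * y := by group
      _ = a * (x * b) * y := by rw [hbx]
      _ = (a * x) * (b * y) := by group
      _ = (x * a) * (y * b) := by rw [hax, hby]
      _ = x * (a * y) * b := by group
  have h2 : x * y * (a * b) = z * (x * (a * y) * b) := by
    calc x * y * (a * b) = x * (y * a) * b := by group
      _ = x * (z * (a * y)) * b := by rw [hya]
      _ = (x * z) * (a * y) * b := by group
      _ = (z * x) * (a * y) * b := by rw [hzc x]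
      _ = z * (x * (a * y) * b) := by group
  have h3 : 1 * (x * (a * y) * b) = z * (x * (a * y) * b) := by
    rw [one_mul, ← h2, ← hE, h1]
  exact (mul_right_cancel h3).symm

/-- An element `t` normalising `R` (a group with commutators and squares in `{1, z}`), with
`t ^ 5 = 1`, such that no `t u t⁻¹ u⁻¹` squares to `z`, centralises `R`. -/
theorem central_of_sq (R : Subgroup G) (z t : G)
    (hzc : ∀ g : G, z * g = g * z) (hzz : z * z = 1)
    (hcomm : ∀ u ∈ R, ∀ v ∈ R, u * v = v * u ∨ u * v = z * (v * u))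
    (hsq : ∀ u ∈ R, u * u = 1 ∨ u * u = z)
    (hnorm : ∀ u ∈ R, t * u * t⁻¹ ∈ R)
    (hnorm' : ∀ u ∈ R, t⁻¹ * u * t ∈ R)
    (hfix : ∀ u ∈ R, (t * u * t⁻¹ * u⁻¹) * (t * u * t⁻¹ * u⁻¹) ≠ z)
    (hcen : ∀ c ∈ R, (∀ v ∈ R, c * v = v * c) → c ^ 4 = 1 ∧ ∀ g : G, c * g = g * c)
    (ht5 : t ^ 5 = 1) :
    ∀ u ∈ R, t * u = u * t := by
  -- Step 1: `t u t⁻¹` commutes with `u`
  have step1 : ∀ u ∈ R, (t * u * t⁻¹) * u = u * (t * u * t⁻¹) := by
    intro u hu
    rcases hcomm _ (hnorm u hu) u hu with h | h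
    · exact h
    · exfalso
      apply hfix u hu
      obtain ⟨a, ha⟩ : ∃ a, a = t * u * t⁻¹ := ⟨_, rfl⟩
      rw [← ha] at h ⊢
      have ha2 : a * a = u * u := by
        have e : a * a = t * (u * u) * t⁻¹ := by rw [ha]; group
        rw [e]
        rcases hsq u hu with h1 | h1
        · rw [h1]; group
        · rw [h1, ← hzc t]; group
      have h3 : u⁻¹ * a = z * (a * u⁻¹) := by
        have : u⁻¹ * (a * u) * u⁻¹ = u⁻¹ * (z * (u * a)) * u⁻¹ := by rw [h]
        calc u⁻¹ * a = u⁻¹ * (a * u) * u⁻¹ := by group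
          _ = u⁻¹ * (z * (u * a)) * u⁻¹ := this
          _ = (u⁻¹ * z) * u * a * u⁻¹ := by group
          _ = (z * u⁻¹) * u * a * u⁻¹ := by rw [hzc u⁻¹]
          _ = z * (a * u⁻¹) := by group
      calc a * u⁻¹ * (a * u⁻¹) = a * (u⁻¹ * a) * u⁻¹ := by group
        _ = a * (z * (a * u⁻¹)) * u⁻¹ := by rw [h3]
        _ = (a * z) * a * u⁻¹ * u⁻¹ := by group
        _ = (z * a) * a * u⁻¹ * u⁻¹ := by rw [hzc a]
        _ = z * (a * a) * u⁻¹ * u⁻¹ := by group
        _ = z * (u * u) * u⁻¹ * u⁻¹ := by rw [ha2]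
        _ = z := by group
  -- Step 2: polarisation
  have step2 : ∀ u ∈ R, ∀ v ∈ R,
      ((t * u * t⁻¹) * v = v * (t * u * t⁻¹) ↔ (t * v * t⁻¹) * u = u * (t * v * t⁻¹)) := by
    intro u hu v hv
    by_cases hz1 : z = 1
    · have hall : ∀ x ∈ R, ∀ y ∈ R, x * y = y * x := by
        intro x hx y hy
        rcases hcomm x hx y hy with h | h
        · exact h
        · rw [h, hz1, one_mul]
      exact ⟨fun _ => hall _ (hnorm v hv) u hu, fun _ => hall _ (hnorm u hu) v hv⟩
    · obtain ⟨a, ha⟩ : ∃ a, a = t * u * t⁻¹ := ⟨_, rfl⟩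
      obtain ⟨b, hb⟩ : ∃ b, b = t * v * t⁻¹ := ⟨_, rfl⟩
      have haR : a ∈ R := ha ▸ hnorm u hu
      have hbR : b ∈ R := hb ▸ hnorm v hv
      have hau : a * u = u * a := by rw [ha]; exact step1 u hu
      have hbv : b * v = v * b := by rw [hb]; exact step1 v hv
      rw [← ha, ← hb]
      have hE : a * b * (u * v) = u * v * (a * b) := by
        have h := step1 (u * v) (R.mul_mem hu hv)
        have e : t * (u * v) * t⁻¹ = a * b := by rw [ha, hb]; group
        rw [e] at h
        exact h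
      have hE' : b * a * (v * u) = v * u * (b * a) := by
        have h := step1 (v * u) (R.mul_mem hv hu)
        have e : t * (v * u) * t⁻¹ = b * a := by rw [ha, hb]; group
        rw [e] at h
        exact h
      rcases hcomm b hbR u hu with h1 | h1 <;> rcases hcomm v hv a haR with h2 | h2
      · exact ⟨fun _ => h1, fun _ => h2.symm⟩
      · exact absurd (mix_case hzc hau hbv h1 h2 hE) hz1
      · -- b u = z (u b), v a = a v : symmetric mixed case
        have h1' : u * b = z * (b * u) := by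
          rw [h1, ← mul_assoc, hzz, one_mul]
        exact absurd (mix_case hzc hbv hau h2.symm h1' hE') hz1
      · constructor
        · intro h
          exfalso
          apply hz1
          have : 1 * (a * v) = z * (a * v) := by rw [one_mul, ← h2, h]
          exact (mul_right_cancel this).symm
        · intro h
          exfalso
          apply hz1
          have : 1 * (u * b) = z * (u * b) := by rw [one_mul, ← h1, h]
          exact (mul_right_cancel this).symm
  intro u hu
  -- Step 3: `c = (t u t⁻¹) (t⁻¹ u t)⁻¹` commutes with `R`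
  obtain ⟨a, ha⟩ : ∃ a, a = t * u * t⁻¹ := ⟨_, rfl⟩
  obtain ⟨a', ha'⟩ : ∃ a', a' = t⁻¹ * u * t := ⟨_, rfl⟩
  have haR : a ∈ R := ha ▸ hnorm u hu
  have ha'R : a' ∈ R := ha' ▸ hnorm' u hu
  have hiff : ∀ v ∈ R, (a * v = v * a ↔ a' * v = v * a') := by
    intro v hv
    rw [ha, step2 u hu v hv]
    constructor
    · intro h
      have : t⁻¹ * ((t * v * t⁻¹) * u) * t = t⁻¹ * (u * (t * v * t⁻¹)) * t := by rw [h]
      calc a' * v = t⁻¹ * (u * (t * v * t⁻¹)) * t := by rw [ha']; group
        _ = t⁻¹ * ((t * v * t⁻¹) * u) * t := this.symm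
        _ = v * a' := by rw [ha']; group
    · intro h
      have : t * (a' * v) * t⁻¹ = t * (v * a') * t⁻¹ := by rw [h]
      calc (t * v * t⁻¹) * u = t * (v * a') * t⁻¹ := by rw [ha']; group
        _ = t * (a' * v) * t⁻¹ := this.symm
        _ = u * (t * v * t⁻¹) := by rw [ha']; group
  have hc : ∀ v ∈ R, (a * a'⁻¹) * v = v * (a * a'⁻¹) := by
    intro v hv
    rcases hcomm a haR v hv with h1 | h1
    · have h2 : a' * v = v * a' := (hiff v hv).mp h1
      have h3 : a'⁻¹ * v = v * a'⁻¹ := by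
        calc a'⁻¹ * v = a'⁻¹ * (v * a') * a'⁻¹ := by group
          _ = a'⁻¹ * (a' * v) * a'⁻¹ := by rw [h2]
          _ = v * a'⁻¹ := by group
      calc a * a'⁻¹ * v = a * (a'⁻¹ * v) := by group
        _ = a * (v * a'⁻¹) := by rw [h3]
        _ = (a * v) * a'⁻¹ := by group
        _ = (v * a) * a'⁻¹ := by rw [h1]
        _ = v * (a * a'⁻¹) := by group
    · rcases hcomm a' ha'R v hv with h2 | h2
      · -- then a commutes with v, so z = 1 ... use h1 directly
        have h1' : a * v = v * a := (hiff v hv).mpr h2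
        have h3 : a'⁻¹ * v = v * a'⁻¹ := by
          calc a'⁻¹ * v = a'⁻¹ * (v * a') * a'⁻¹ := by group
            _ = a'⁻¹ * (a' * v) * a'⁻¹ := by rw [h2]
            _ = v * a'⁻¹ := by group
        calc a * a'⁻¹ * v = a * (a'⁻¹ * v) := by group
          _ = a * (v * a'⁻¹) := by rw [h3]
          _ = (a * v) * a'⁻¹ := by group
          _ = (v * a) * a'⁻¹ := by rw [h1']
          _ = v * (a * a'⁻¹) := by group
      · have h3 : a'⁻¹ * v = z * (v * a'⁻¹) := by
          have e : v * a'⁻¹ = z * (a'⁻¹ * v) := by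
            calc v * a'⁻¹ = a'⁻¹ * (a' * v) * a'⁻¹ := by group
              _ = a'⁻¹ * (z * (v * a')) * a'⁻¹ := by rw [h2]
              _ = (a'⁻¹ * z) * v := by group
              _ = (z * a'⁻¹) * v := by rw [hzc a'⁻¹]
              _ = z * (a'⁻¹ * v) := by group
          rw [e, ← mul_assoc, hzz, one_mul]
        calc a * a'⁻¹ * v = a * (a'⁻¹ * v) := by group
          _ = a * (z * (v * a'⁻¹)) := by rw [h3]
          _ = (a * z) * v * a'⁻¹ := by group
          _ = (z * a) * v * a'⁻¹ := by rw [hzc a]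
          _ = z * (a * v) * a'⁻¹ := by group
          _ = z * (z * (v * a)) * a'⁻¹ := by rw [h1]
          _ = (z * z) * v * a * a'⁻¹ := by group
          _ = v * (a * a'⁻¹) := by rw [hzz]; group
  -- Step 4
  obtain ⟨hc4, hcc⟩ := hcen (a * a'⁻¹) (R.mul_mem haR (R.inv_mem ha'R)) hc
  obtain ⟨c, hcdef⟩ : ∃ c, c = a * a'⁻¹ := ⟨_, rfl⟩
  rw [← hcdef] at hc4 hcc
  have hs : (t ^ 2) * u * (t ^ 2)⁻¹ = c * u := by
    have e1 : a = c * a' := by rw [hcdef]; group
    have e2 : (t ^ 2) * u * (t ^ 2)⁻¹ = t * a * t⁻¹ := by rw [ha, pow_two]; group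
    rw [e2, e1]
    calc t * (c * a') * t⁻¹ = (t * c) * a' * t⁻¹ := by group
      _ = (c * t) * a' * t⁻¹ := by rw [hcc t]
      _ = c * u := by rw [ha']; group
  have hpow : ∀ k : ℕ, (t ^ 2) ^ k * u * ((t ^ 2) ^ k)⁻¹ = c ^ k * u := by
    intro k
    induction k with
    | zero => simp
    | succ k ih =>
      calc (t ^ 2) ^ (k + 1) * u * ((t ^ 2) ^ (k + 1))⁻¹
          = (t ^ 2) * ((t ^ 2) ^ k * u * ((t ^ 2) ^ k)⁻¹) * (t ^ 2)⁻¹ := by
            rw [pow_succ']; group
        _ = (t ^ 2) * (c ^ k * u) * (t ^ 2)⁻¹ := by rw [ih]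
        _ = ((t ^ 2) * c ^ k) * u * (t ^ 2)⁻¹ := by group
        _ = (c ^ k * (t ^ 2)) * u * (t ^ 2)⁻¹ := by
            rw [show (t ^ 2) * c ^ k = c ^ k * (t ^ 2) from
              ((Commute.pow_left (hcc (t ^ 2)) k).eq).symm]
        _ = c ^ k * ((t ^ 2) * u * (t ^ 2)⁻¹) := by group
        _ = c ^ k * (c * u) := by rw [hs]
        _ = c ^ (k + 1) * u := by rw [pow_succ]; group
  have h5 := hpow 5
  have ht10 : (t ^ 2) ^ 5 = 1 := by
    rw [← pow_mul, show 2 * 5 = 5 * 2 from rfl, pow_mul, ht5, one_pow]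
  rw [ht10] at h5
  have hc5 : c ^ 5 = 1 := by
    have : c ^ 5 * u = 1 * u := by rw [← h5]; group
    exact mul_right_cancel this
  have hc1 : c = 1 := by
    have : c ^ 5 = c ^ 4 * c := pow_succ c 4
    rw [hc4, one_mul] at this
    rw [← this, hc5]
  rw [hc1, one_mul] at hs
  -- t² commutes with u, hence t = t⁶ = (t²)³ does
  have hs' : t ^ 2 * u = u * t ^ 2 := by
    calc t ^ 2 * u = (t ^ 2 * u * (t ^ 2)⁻¹) * t ^ 2 := by group
      _ = u * t ^ 2 := by rw [hs]
  have ht6 : t = (t ^ 2) ^ 3 := by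
    rw [← pow_mul, show 2 * 3 = 5 + 1 from rfl, pow_succ, ht5, one_mul]
  have hcm : Commute (t ^ 2) u := hs'
  rw [ht6]
  exact (hcm.pow_left 3).eq

end abstract

theorem rank_add_le' {n : Type*} [Fintype n] [DecidableEq n] {F : Type*} [Field F]
    (A B : Matrix n n F) : (A + B).rank ≤ A.rank + B.rank := by
  have h := LinearMap.rank_add_le A.mulVecLin B.mulVecLin
  rw [← Matrix.mulVecLin_add] at h
  have e : ∀ C : Matrix n n F, (C.rank : Cardinal) = LinearMap.rank C.mulVecLin := by
    intro C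
    rw [Matrix.rank, LinearMap.rank, Module.finrank_eq_rank]
  rw [← e, ← e, ← e] at h
  exact_mod_cast h

theorem rank_sub_le' {n : Type*} [Fintype n] [DecidableEq n] {F : Type*} [Field F]
    (A B : Matrix n n F) : (A - B).rank ≤ A.rank + B.rank := by
  have h := rank_add_le' A (-B)
  have e : (-B).rank = B.rank := by
    have h1 : -B = B * (-1 : Matrix n n F) := by simp
    have h2 : B = (-B) * (-1 : Matrix n n F) := by simp
    apply le_antisymm
    · rw [h1]; exact Matrix.rank_mul_le_left _ _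
    · conv_lhs => rw [h2]
      exact Matrix.rank_mul_le_left _ _
  rw [e, ← sub_eq_add_neg] at h
  exact h


/-- the matrix of the transvection -/
theorem transv_pow {F : Type*} [Field F] (n : ℕ) :
    (Matrix.transvection (0 : Fin 4) 1 (1 : F)) ^ n = Matrix.transvection (0 : Fin 4) 1 (n : F) := by
  induction n with
  | zero => simp [Matrix.transvection_zero]
  | succ k ih =>
    have h01 : (0 : Fin 4) ≠ 1 := by decide
    rw [pow_succ, ih, Matrix.transvection_mul_transvection_same 0 1 h01]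
    push_cast
    rfl

/-- **[TRANSV]** (assuming [R0]) -/
theorem pkgTransv_of (hR0 : PkgR0.{u}) : PkgTransv.{u} := by
  intro F _ _ p _ _ hcard hp5 ι hι
  subst hp5
  have h2 : (2 : F) ≠ 0 := by
    intro h
    have h' : ((2 : ℕ) : F) = 0 := by exact_mod_cast h
    rw [CharP.cast_eq_zero_iff F 5] at h'
    omega
  have h5 : ((5 : ℕ) : F) = 0 := (CharP.cast_eq_zero_iff F 5 5).mpr dvd_rfl
  obtain ⟨hcard64, htr, hsc4, hsc, hSq, hComm, hcent, hnf1, hnf2⟩ := hR0 F h2 ι hι
  obtain ⟨X, hX⟩ : ∃ X : M4 F, X = Matrix.transvection 0 1 1 := ⟨_, rfl⟩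
  have hdet : X.det = 1 := by rw [hX]; exact Matrix.det_transvection_of_ne 0 1 (by decide) 1
  obtain ⟨x, hxv⟩ : ∃ x : GL (Fin 4) F, (x : M4 F) = X :=
    ⟨Matrix.GeneralLinearGroup.mkOfDetNeZero X (by rw [hdet]; exact one_ne_zero), rfl⟩
  have hx5 : x ^ 5 = 1 := by
    apply Units.ext
    rw [Units.val_pow_eq_pow_val, hxv, Units.val_one, hX, transv_pow, h5,
      Matrix.transvection_zero]
  have hxns : ¬ IsScal x := by
    rintro ⟨z, hz⟩
    have h := congrFun (congrFun hz 0) 1
    rw [hxv, hX] at h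
    simp [Matrix.transvection, Matrix.single] at h
  refine ⟨x, ?_, hx5, hxns, ?_⟩
  · show x ∈ (Matrix.GeneralLinearGroup.det : GL (Fin 4) F →* Fˣ).ker
    rw [MonoidHom.mem_ker]
    apply Units.ext
    rw [Matrix.GeneralLinearGroup.val_det_apply, hxv, hdet, Units.val_one]
  · intro g ht
    apply hxns
    obtain ⟨t, htdef⟩ : ∃ t : GL (Fin 4) F, t = g⁻¹ * x * g := ⟨_, rfl⟩
    rw [← htdef] at ht
    have hn : ∀ h : GL (Fin 4) F, h ∈ R0 ι ↔ t * h * t⁻¹ ∈ R0 ι := by
      intro h
      exact (Subgroup.mem_normalizer_iff.mp ht) h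
    have hnorm : ∀ u ∈ R0 ι, t * u * t⁻¹ ∈ R0 ι := fun u hu => (hn u).mp hu
    have hnorm' : ∀ u ∈ R0 ι, t⁻¹ * u * t ∈ R0 ι := by
      intro u hu
      apply (hn _).mpr
      have e : t * (t⁻¹ * u * t) * t⁻¹ = u := by group
      rw [e]
      exact hu
    have ht5 : t ^ 5 = 1 := by
      have e : t = g⁻¹ * x * g⁻¹⁻¹ := by rw [inv_inv, htdef]
      rw [e, conj_pow, hx5]
      group
    -- the central involution
    obtain ⟨zz, hzR, hzv⟩ := hsc (-1) (by norm_num)
    have hzv' : (zz : M4 F) = -1 := by rw [hzv]; simp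
    have hzc : ∀ k : GL (Fin 4) F, zz * k = k * zz := by
      intro k
      apply Units.ext
      rw [Units.val_mul, Units.val_mul, hzv']
      simp
    have hzz : zz * zz = 1 := by
      apply Units.ext
      rw [Units.val_mul, hzv']
      simp
    have hcomm : ∀ u ∈ R0 ι, ∀ v ∈ R0 ι, u * v = v * u ∨ u * v = zz * (v * u) := by
      intro u hu v hv
      rcases hComm u hu v hv with h | h
      · left
        apply Units.ext
        rw [Units.val_mul, Units.val_mul, h]
      · right
        apply Units.ext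
        rw [Units.val_mul, Units.val_mul, Units.val_mul, hzv', h]
        simp
    have hsq : ∀ u ∈ R0 ι, u * u = 1 ∨ u * u = zz := by
      intro u hu
      rcases hSq u hu with h | h
      · left
        apply Units.ext
        rw [Units.val_mul, h, Units.val_one]
      · right
        apply Units.ext
        rw [Units.val_mul, h, hzv']
    have hcen : ∀ c ∈ R0 ι, (∀ v ∈ R0 ι, c * v = v * c) →
        c ^ 4 = 1 ∧ ∀ k : GL (Fin 4) F, c * k = k * c := by
      intro c hc hcv
      obtain ⟨e, he⟩ := hcent (c : M4 F) (fun k hk => by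
        have h := congrArg Units.val (hcv k hk)
        rw [Units.val_mul, Units.val_mul] at h
        exact h.symm)
      have he4 : e ^ 4 = 1 := hsc4 c hc e he
      constructor
      · apply Units.ext
        rw [Units.val_pow_eq_pow_val, he, Units.val_one, smul_pow, he4, one_pow, one_smul]
      · intro k
        apply Units.ext
        rw [Units.val_mul, Units.val_mul, he]
        simp
    -- the rank argument
    have hN : ((t : M4 F) - 1).rank ≤ 1 := by
      have e1 : (t : M4 F) - 1 = ((g⁻¹ : GL (Fin 4) F) : M4 F) * (X - 1) * (g : M4 F) := by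
        rw [htdef, Units.val_mul, Units.val_mul, hxv, Matrix.mul_sub, Matrix.sub_mul,
          Matrix.mul_one, ← Units.val_mul, inv_mul_cancel, Units.val_one]
      have e2 : X - 1 = Matrix.vecMulVec (Pi.single (0 : Fin 4) (1 : F)) (Pi.single (1 : Fin 4) (1 : F)) := by
        rw [hX, Matrix.transvection, add_sub_cancel_left,
          Matrix.single_eq_single_vecMulVec_single]
      rw [e1]
      refine (Matrix.rank_mul_le_left _ _).trans ((Matrix.rank_mul_le_right _ _).trans ?_)
      rw [e2]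
      exact Matrix.rank_vecMulVec_le _ _
    have hfix : ∀ u ∈ R0 ι, (t * u * t⁻¹ * u⁻¹) * (t * u * t⁻¹ * u⁻¹) ≠ zz := by
      intro u hu hW
      obtain ⟨W, hWdef⟩ : ∃ W : GL (Fin 4) F, W = t * u * t⁻¹ * u⁻¹ := ⟨_, rfl⟩
      rw [← hWdef] at hW
      have hW2 : (W : M4 F) * (W : M4 F) = -1 := by
        rw [← Units.val_mul, hW, hzv']
      -- W - 1 is invertible
      have hunit : IsUnit ((W : M4 F) - 1) := by
        have hprod : ((W : M4 F) - 1) * ((-(2 : F)⁻¹) • ((W : M4 F) + 1)) = 1 := by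
          rw [Matrix.mul_smul, Matrix.sub_mul, Matrix.mul_add, Matrix.mul_add, hW2,
            Matrix.mul_one, Matrix.one_mul, Matrix.one_mul]
          have e : (-1 : M4 F) + (W : M4 F) - ((W : M4 F) + 1) = (-2 : F) • (1 : M4 F) := by
            have : (-2 : F) • (1 : M4 F) = -1 + -1 := by
              rw [neg_smul, two_smul]; abel
            rw [this]; abel
          rw [e, smul_smul]
          have : -(2 : F)⁻¹ * -2 = 1 := by field_simp
          rw [this, one_smul]
        exact IsUnit.of_mul_eq_one _ hprod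
      have hr4 := Matrix.rank_of_isUnit _ hunit
      -- but rank ≤ 2
      have e3 : (W : M4 F) - 1 = (((t : M4 F) - 1) * (u : M4 F) - (u : M4 F) * ((t : M4 F) - 1))
          * (((t⁻¹ : GL (Fin 4) F) : M4 F) * ((u⁻¹ : GL (Fin 4) F) : M4 F)) := by
        have ht1 : (t : M4 F) * ((t⁻¹ : GL (Fin 4) F) : M4 F) = 1 := by
          rw [← Units.val_mul, mul_inv_cancel, Units.val_one]
        have hu1 : (u : M4 F) * ((u⁻¹ : GL (Fin 4) F) : M4 F) = 1 := by
          rw [← Units.val_mul, mul_inv_cancel, Units.val_one]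
        have e4 : ((t : M4 F) - 1) * (u : M4 F) - (u : M4 F) * ((t : M4 F) - 1)
            = (t : M4 F) * (u : M4 F) - (u : M4 F) * (t : M4 F) := by
          rw [Matrix.sub_mul, Matrix.mul_sub, Matrix.one_mul, Matrix.mul_one]
          abel
        rw [e4, Matrix.sub_mul, hWdef, Units.val_mul, Units.val_mul, Units.val_mul]
        congr 1
        · simp only [Matrix.mul_assoc]
        · rw [Matrix.mul_assoc (u : M4 F), ← Matrix.mul_assoc (t : M4 F), ht1, Matrix.one_mul, hu1]
      have hr2 : ((W : M4 F) - 1).rank ≤ 2 := by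
        rw [e3]
        refine (Matrix.rank_mul_le_left _ _).trans ((rank_sub_le' _ _).trans ?_)
        have r1 : (((t : M4 F) - 1) * (u : M4 F)).rank ≤ 1 :=
          (Matrix.rank_mul_le_left _ _).trans hN
        have r2 : ((u : M4 F) * ((t : M4 F) - 1)).rank ≤ 1 :=
          (Matrix.rank_mul_le_right _ _).trans hN
        omega
      rw [hr4, Fintype.card_fin] at hr2
      omega
    have hcentral := central_of_sq (R0 ι) zz t hzc hzz hcomm hsq hnorm hnorm' hfix hcen ht5
    -- t is scalar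
    obtain ⟨c, hc⟩ := hcent (t : M4 F) (fun k hk => by
      have h := congrArg Units.val (hcentral k hk)
      rw [Units.val_mul, Units.val_mul] at h
      exact h.symm)
    refine ⟨c, ?_⟩
    have hx : x = g * t * g⁻¹ := by rw [htdef]; group
    rw [hx, Units.val_mul, Units.val_mul, hc, Matrix.mul_smul, Matrix.mul_one, Matrix.smul_mul,
      ← Units.val_mul, mul_inv_cancel, Units.val_one]

end Cfsg.Agent.Lib.Helper77.C64
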